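import Cfsg.Agent.J4E.Rho
import Cfsg.Agent.J4D.Main

/-! A subgroup `L3(2)` normalizing the singular subgroup of order `8`. -/

set_option autoImplicit false
set_option maxRecDepth 100000
set_option linter.style.haveILetI false

namespace Cfsg.Agent.J4E

open Cfsg Cfsg.Agent.LL Cfsg.Agent.LL.U6 Cfsg.Agent.H16 Cfsg.Agent.H3 Cfsg.Agent.H10 MulAction Subgroup
open scoped Pointwise symmDiff

def tsl : List ℕ := [0, 40977, 32779, 8218, 24579, 49170, 57352, 16409]
noncomputable def ts (i : ℕ) : ℕ := nth 0 tsl i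
def lg : List ℕ := [944577386810980734254141187421220320, 880809691797011320641264114486881391,
  881661582672390779849881733156882528, 963886464963759861500762383098980384, 983560365794902997477185525013523488]
noncomputable def L3 : Subgroup M24 := clos gpt 24 5 ⊤ lg

theorem ts0 : toSet (ts 0) = ∅ := (congrArg toSet (by decide +kernel)).trans toSet_zero
theorem ts_even {i : ℕ} (h : i < 8) : Even (toSet (ts i)).card :=
  card_toSet _ ▸ (by decide +kernel : ∀ i < 8, Even (pc24 (ts i))) i h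

theorem sd_iff {g : M24} {p m n : ℕ} (r : Rep gpt 24 g (get 5 p)) (hn : n < 2 ^ 24) :
    (g • toSet m) ∆ toSet n ∈ gSets ↔ isCode (Nat.xor (img p m) n) = true := by
  have hp : ∀ i < 24, get 5 p i < 24 := fun i hi => (r i hi).1
  rw [r.smul_toSet, ← toSet_xor, toSet_mem_iff (Nat.xor_lt_two_pow (img_eq hp m ▸ imgS_lt hp m) hn)]; rfl

theorem L3_facts : Nat.card L3 = 168 ∧ ∀ g ∈ L3, (∀ i < 8, ∃ j < 8, (g • toSet (ts i)) ∆ toSet (ts j) ∈ gSets) ∧
    ((∀ i < 8, (g • toSet (ts i)) ∆ toSet (ts i) ∈ gSets) → g = 1) := by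
  obtain ⟨h1, h2⟩ := enum_gen mulOk24 gpt_inj (B := [0, 1, 2]) (by decide) (faith_M24 _)
    (gen_clos (faith_M24 ⊤) (inK_top_of_allL (S := lg) (by decide +kernel))) (M := 168) (L := fun p =>
      andB (allB 8 fun i => force (img p (ts i)) fun s => anyB 8 fun j => isCode (Nat.xor s (ts j)))
        (impB (allB 8 fun i => isCode (Nat.xor (img p (ts i)) (ts i))) (eqP 5 24 (pid 5 24) p))) (by decide +kernel)
  refine ⟨h1, fun g hg => ?_⟩
  obtain ⟨p, r, l⟩ := h2 g hg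
  have lt : ∀ i < 8, ts i < 2 ^ 24 := by decide +kernel
  simp only [andB_iff, allB_iff, anyB_iff, impB_iff, force_eq] at l
  exact ⟨fun i hi => let ⟨j, hj, e⟩ := l.1 i hi; ⟨j, hj, (sd_iff r (lt j hj)).mpr e⟩, fun h =>
    Rep.eq_of_faith (faith_M24 ⊤) trivial trivial (r.congr (eqP_iff.mp (l.2 fun i hi => (sd_iff r (lt i hi)).mp (h i hi))))
      (Rep.pid five_le)⟩

variable {G : Type*} [Group G]

theorem t_of {A : Subgroup G} {t : Finset GolayPt → G} (h : Todd A t) {S T : Finset GolayPt} (e : S ∆ T ∈ gSets) : t S = t T := by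
  have := (h.ker _ (Nat.even_iff.mpr (by have := card_of_mem_gSets e; omega))).mpr e
  rw [h.mul] at this
  rw [eq_inv_of_mul_eq_one_left this, inv_eq_of_mul_eq_one_left (h.sq T)]

theorem of_t {A : Subgroup G} {t : Finset GolayPt → G} (h : Todd A t) {S T : Finset GolayPt} (hS : Even S.card)
    (hT : Even T.card) (e : t S = t T) : S ∆ T ∈ gSets := (h.ker _ (even_sd hS hT)).mp (by rw [h.mul, e, h.sq])

/-- the sextets refining a trio -/
def WT {A : Subgroup G} {t : Finset GolayPt → G} (h : Todd A t) : Subgroup G where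
  carrier := {a | ∃ i < 8, t (toSet (ts i)) = a}
  one_mem' := ⟨0, by norm_num, (congrArg t ts0).trans h.empty⟩
  mul_mem' := by
    rintro _ _ ⟨i, hi, rfl⟩ ⟨j, hj, rfl⟩
    exact ⟨_, Nat.xor_lt_two_pow (n := 3) hi hj, by
      rw [(by decide +kernel : ∀ i < 8, ∀ j < 8, ts (i ^^^ j) = ts i ^^^ ts j) i hi j hj, toSet_xor, h.mul]⟩
  inv_mem' := by
    rintro _ ⟨i, hi, rfl⟩
    exact ⟨i, hi, (inv_eq_of_mul_eq_one_left (h.sq _)).symm⟩

variable {z : G} {Q : Subgroup G} {ρ : centralizer ({z} : Set G) →* Γ} {p : G → V6} [Finite G]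
  {m : FT z Q ρ p} {x : centralizer ({z} : Set G)} {b : ℕ → G} {d : ℕ → centralizer ({z} : Set G)}
  {t : Finset GolayPt → G} {Φ : normalizer (m.AG : Set G) →* M24} (k : JC m x b d t Φ)
include k

theorem eq_z {a : G} (ha : a ∈ m.AG) (n : a ≠ 1) (h : ∀ y ∈ normalizer (m.AG : Set G), y * x = x * y → y * a = a * y) : a = z := by
  obtain ⟨a, ha, rfl⟩ := ha
  by_cases e : ρ a = 1
  · exact (m.lx.mem_z.mp (m.Y_ker k.c.hx (Subtype.ext (h x (m.AG_norm (k.c.hx ▸ W_norm)) rfl).symm) e)).resolve_left n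
  obtain ⟨u, hu, u1, u2⟩ := move ha.1 e
  obtain ⟨y, y1, rfl⟩ := m.Y_lift k.c.hx k.c.x3 (k.j.hr.ge (NJ_XJ hu)) u1
  exact absurd (by rw [← map_mul, ← map_mul]; exact congrArg ρ (Subtype.ext (h y (m.AG_norm (NJ_norm hu))
    (congrArg Subtype.val y1)))) u2

theorem V_eq : ∃ c : G, m.V = MulAut.conj c • WT k.h.toTodd := by
  let x' : normalizer (m.AG : Set G) := ⟨x, m.AG_norm (k.c.hx ▸ W_norm)⟩
  have x3 : x' ^ 3 = 1 := Subtype.ext (congrArg Subtype.val k.c.x3 :)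
  obtain ⟨S, s, e⟩ := k.duad (e := 1) (by norm_num) one_ne_zero
  obtain ⟨c, f⟩ := isConj_iff.mp (conj3A (orderOf_eq_prime (by rw [← map_pow, x3, map_one]) fun f => by
    have : x' = 1 := by rw [← x3, pow_succ, pow_two, show x' * x' = 1 from Subtype.ext (k.h.A_sq ((k.ker _).mp f)), one_mul]
    simpa [show x = 1 from Subtype.ext (congrArg Subtype.val this :)] using k.j.ord) s
    (k.fix (n := x') s (e ▸ congrArg Subtype.val (k.c.dx 1).symm)))
  obtain ⟨n, rfl⟩ := k.surj c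
  have a1 : C3A ≤ ((centralizer {t (toSet (ts 1))}).subgroupOf _).map Φ := C3A_facts.2.le fun q hq g _ r => by
    obtain ⟨y, rfl⟩ := k.surj g
    exact ⟨y, mem_centralizer_singleton_iff.mpr (mul_inv_eq_iff_eq_mul.mp ((k.act y _ (ts_even (by norm_num))).trans
      (t_of k.h.toTodd ((sd_iff r (by decide +kernel)).mpr ((by decide +kernel : ∀ q ∈ cS3A,
        isCode (Nat.xor (img q (ts 1)) (ts 1)) = true) q hq))))), rfl⟩
  have mem : ∀ S, n * t S * (n : G)⁻¹ ∈ m.AG := fun S => (mem_normalizer_iff.mp n.2 _).mp (k.h.mem S)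
  have ne : ∀ i < 8, ∀ j < 8, t (toSet (ts i)) = t (toSet (ts j)) → i = j := fun i hi j hj e => by
    have := of_t k.h.toTodd (ts_even hi) (ts_even hj) e
    rw [← toSet_xor, toSet_mem_iff ((by decide +kernel : ∀ i < 8, ∀ j < 8, ts i ^^^ ts j < 2 ^ 24) i hi j hj)] at this
    exact (by decide +kernel : ∀ i < 8, ∀ j < 8, isCode (ts i ^^^ ts j) = true → i = j) i hi j hj this
  have a2 : n * t (toSet (ts 1)) * (n : G)⁻¹ = z := eq_z k (mem _) (fun e => absurd (ne 1 (by norm_num) 0 (by norm_num)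
    ((conj_eq_one_iff.mp e).trans ((congrArg t ts0).trans k.h.empty).symm)) one_ne_zero) fun y hy h => by
      obtain ⟨y', h1, h2⟩ := a1 (show Φ (n⁻¹ * ⟨y, hy⟩ * n) ∈ C3A from mem_centralizer_singleton_iff.mpr (by
        have := congrArg Φ (show ⟨y, hy⟩ * x' = x' * ⟨y, hy⟩ from Subtype.ext h)
        rw [map_mul, map_mul, ← f] at this
        simp only [map_mul, map_inv]
        calc _ = (Φ n)⁻¹ * (Φ ⟨y, hy⟩ * (Φ n * t3A * (Φ n)⁻¹)) * Φ n := by group
          _ = _ := by rw [this]; group))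
      have := k.act (n⁻¹ * ⟨y, hy⟩ * n) _ (ts_even (i := 1) (by norm_num))
      rw [← h2, ← k.act y' _ (ts_even (by norm_num)), show (y' : G) * _ = _ from mem_centralizer_singleton_iff.mp h1,
        mul_inv_cancel_right] at this
      conv_rhs => rw [← this]
      simp [mul_assoc]
  have a3 : ∀ i < 8, ∀ j, ts j < 2 ^ 24 → isCode (Nat.xor (img z3A (ts i)) (ts j)) = true →
      (x : G) * ((n : G) * t (toSet (ts i)) * (n : G)⁻¹) * (x : G)⁻¹ = (n : G) * t (toSet (ts j)) * (n : G)⁻¹ := fun i hi j hj h => by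
    have := k.act (n⁻¹ * x' * n) _ (ts_even hi)
    rw [show Φ (n⁻¹ * x' * n) = t3A by simp [← f, mul_assoc], t_of k.h.toTodd ((sd_iff rep3A hj).mpr h)] at this
    rw [← this]; simp [x', mul_assoc]
  have b1 := a3 2 (by norm_num) 4 (by decide +kernel) (by decide +kernel)
  have b2 := a3 4 (by norm_num) 6 (by decide +kernel) (by decide +kernel)
  rw [show ts 6 = ts 2 ^^^ ts 4 by decide +kernel, toSet_xor, k.h.mul, ← conj_mul (b := (n : G)) (a := t (toSet (ts 2)))] at b2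
  obtain ⟨w, hw, w1⟩ := mem (toSet (ts 2))
  obtain ⟨v, hv, v1'⟩ := mem (toSet (ts 4))
  replace w1 : (w : G) = _ := w1
  replace v1' : (v : G) = _ := v1'
  rw [← w1, ← v1'] at b1
  rw [← w1, ← v1'] at b2
  have l : ∀ a ∈ m.AA, ρ (x * a * x⁻¹) = ρ a := fun a ha => by
    rw [map_mul, map_mul, k.c.hx, ← W_comm (J0_GU (F16_J0 ha.1)), map_inv, k.c.hx, mul_inv_cancel_right]
  have b3 : (w : G) ∈ Q := (m.ker w).mp (by
    have := l v hv
    rwa [show x * v * x⁻¹ = w * v from Subtype.ext b2, map_mul, mul_eq_right] at this)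
  obtain ⟨g, hg, e⟩ := m.toJ k.j.hr b3 (w1 ▸ (k.h.tetrad (by rw [card_toSet]; decide +kernel)).trans (isConj_iff.mpr ⟨_, rfl⟩))
    fun e => absurd (ne 2 (by norm_num) 1 (by norm_num) (by simpa [w1, ← a2] using e)) (by norm_num)
  obtain ⟨h, rfl⟩ := k.j.hr.ge hg
  have mm : ∀ i < 8, ((h⁻¹ : centralizer ({z} : Set G)) : G) * (n * t (toSet (ts i)) * (n : G)⁻¹) * ((h⁻¹ : centralizer ({z} : Set G)) : G)⁻¹ ∈
      MulAut.conj (((h⁻¹ : centralizer ({z} : Set G)) : G) * n) • WT k.h.toTodd := fun i hi => ⟨_, ⟨i, hi, rfl⟩, cjcj _ _ _⟩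
  have c1 := m.conj_mem h⁻¹ b3
  have c2 := m.conj_mem h⁻¹ (m.conj_mem x b3)
  have p1 : p _ = v1 := (m.act h⁻¹ b3).trans (by simp [← e])
  have p2 := m.act h⁻¹ (m.conj_mem x b3)
  rw [m.act x b3, k.c.hx, ← e, map_inv] at p2
  have m1 := mm 1 (by norm_num)
  have m2 := mm 2 (by norm_num)
  have m4 := mm 4 (by norm_num)
  rw [a2, mul_inv_eq_iff_eq_mul.mpr (mem_centralizer_singleton_iff.mp (h⁻¹).2)] at m1
  rw [← w1] at m2
  rw [← v1', ← b1] at m4
  refine ⟨((h⁻¹ : centralizer ({z} : Set G)) : G) * n, eq_of_le_of_card_ge ?_ ?_⟩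
  · rcases XJ_W (inv_mem hg) with f | f <;> replace f := congrArg (· v1) f <;> simp only [inv_inv, Equiv.Perm.mul_apply] at f
    · exact m.V_le c1 c2 p1 (p2.trans (f.trans om_v1)) m1 m2 m4
    · refine m.V_le c1 (mul_mem c1 c2) p1 ?_ m1 m2 (mul_mem m2 m4)
      rw [m.mul c1 c2, p1, p2, f]
      change v1 + ω • ω • v1 = _
      rw [om_v1, ← vc_om (by norm_num), ← vc_xor]; exact congrArg vc (by decide +kernel)
  · rw [card_conj_smul, m.card_V]
    have : (WT k.h.toTodd : Set G) ⊆ (fun i => t (toSet (ts i))) '' (Finset.range 8 : Set ℕ) := by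
      rintro _ ⟨i, hi, rfl⟩; exact ⟨i, by simpa using hi, rfl⟩
    exact (Set.ncard_le_ncard this (Set.toFinite _)).trans ((Set.ncard_image_le (Set.toFinite _)).trans (by simp))

theorem exists_K2 : ∃ K : Subgroup G, K ≤ normalizer (m.V : Set G) ∧ Nonempty (K ≃* Matrix.SpecialLinearGroup (Fin 3) (ZMod 2)) := by
  haveI : Fact (Nat.Prime 2) := ⟨Nat.prime_two⟩
  obtain ⟨K, hK⟩ := k.split
  obtain ⟨-, ψ, act⟩ := hK.iso k.h.toMS
  obtain ⟨c, e⟩ := V_eq k
  let κ := (MulAut.conj c).toMonoidHom.comp (K.subtype.comp ψ.symm.toMonoidHom)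
  have i : Function.Injective κ := (MulAut.conj c).injective.comp (K.subtype_injective.comp ψ.symm.injective)
  have a : ∀ g, ∀ i < 8, κ g * (c * t (toSet (ts i)) * c⁻¹) * (κ g)⁻¹ = c * t (g • toSet (ts i)) * c⁻¹ := fun g i hi => by
    have := act (ψ.symm g) _ (ts_even hi)
    rw [ψ.apply_symm_apply] at this
    rw [← this]; simp [κ, mul_assoc]
  have h : L3.map κ ≤ normalizer (m.V : Set G) := by
    rintro _ ⟨g, hg, rfl⟩
    rw [e]
    refine mem_normalizer_of_conj_mem ?_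
    rintro _ ⟨_, ⟨i, hi, rfl⟩, rfl⟩
    obtain ⟨j, hj, f⟩ := (L3_facts.2 g hg).1 i hi
    exact ⟨_, ⟨j, hj, rfl⟩, ((a g i hi).trans (by rw [t_of k.h.toTodd f]; rfl)).symm⟩
  obtain ⟨f, hf⟩ := BG.exists_GL_rep (p := 2) (n := 3) ⟨⟨⟨fun a b => Subtype.ext (m.V_comm a.2 b.2)⟩⟩,
    fun a ha => (pow_two a).trans (m.V_sq ha)⟩ m.card_V h
  obtain ⟨e'⟩ := J4D.gl_sl
  refine ⟨_, h, ⟨(MulEquiv.ofBijective f ((Nat.bijective_iff_injective_and_card f).mpr ⟨(injective_iff_map_eq_one f).mpr ?_, by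
    rw [card_map_of_injective i, L3_facts.1, J4D.card_gl3]⟩)).trans e'⟩⟩
  rintro ⟨_, g, hg, rfl⟩ l
  obtain rfl := (L3_facts.2 g hg).2 fun i hi => of_t k.h.toTodd (by simpa using ts_even hi) (ts_even hi) (by
    have := hf.le l _ (e.ge ⟨_, ⟨i, hi, rfl⟩, rfl⟩)
    simpa using (a g i hi).symm.trans (mul_inv_eq_iff_eq_mul.mpr this.symm))
  exact Subtype.ext (map_one κ)

end Cfsg.Agent.J4E
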