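import Cfsg.Agent.J4E.K2

/-! The special subgroup of order `2 ^ 15`. -/

set_option autoImplicit false
set_option maxRecDepth 100000
set_option linter.style.haveILetI false

namespace Cfsg.Agent.J4E

open Cfsg Cfsg.Agent.LL Cfsg.Agent.LL.U6 Cfsg.Agent.H16 Cfsg.Agent.H3 Cfsg.Agent.H10 Cfsg.Agent.J4D MulAction Subgroup
open scoped Pointwise commutatorElement

variable {G : Type*} [Group G] {z : G} {Q : Subgroup G} {ρ : centralizer ({z} : Set G) →* Γ} {p : G → V6}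

/-- the largest normal `2`-subgroup of the normalizer of `V` -/
noncomputable def LJ (m : FT z Q ρ p) : Subgroup G :=
  (EJ.comap ρ).map (centralizer ({z} : Set G)).subtype ⊓ centralizer (m.V : Set G)

variable {m : FT z Q ρ p} {x : centralizer ({z} : Set G)}

theorem mem_L {c : centralizer ({z} : Set G)} : (c : G) ∈ LJ m ↔ ρ c ∈ EJ ∧ (c : G) ∈ centralizer (m.V : Set G) :=
  and_congr_left' (mem_map_iff_mem (subtype_injective _))

theorem QC_L : Q ⊓ centralizer (m.V : Set G) ≤ LJ m := fun q hq =>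
  (mem_L (c := ⟨q, m.CV_le hq.2⟩)).mpr ⟨by rw [(m.ker _).mpr hq.1]; exact one_mem _, hq.2⟩

theorem V_L : m.V ≤ LJ m := fun _ h => QC_L ⟨h.1, m.V_CV h⟩

theorem cn {n c : G} (hn : n ∈ normalizer (m.V : Set G)) (hc : c ∈ centralizer (m.V : Set G)) :
    n * c * n⁻¹ ∈ centralizer (m.V : Set G) := fun v hv => by
  have := hc _ ((mem_normalizer_iff.mp (inv_mem hn) v).mp hv)
  calc v * (n * c * n⁻¹) = n * (n⁻¹ * v * n⁻¹⁻¹ * c) * n⁻¹ := by group
    _ = _ := by rw [this]; group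

variable [Finite G]

theorem cent_L {c : G} (hc : c ∈ LJ m) (h : ∀ r ∈ LJ m, r * c = c * r) : c ∈ m.V := by
  have h1 := (mem_L (c := ⟨c, m.CV_le hc.2⟩)).mp hc
  have h2 := (m.ker _).mp (EJ_one h1.1 fun x _ a b => by
    obtain ⟨q, hq, e⟩ := m.surj (vc x)
    exact e ▸ m.fix_of hq (h q (QC_L ⟨hq, (m.mem_QC hq e).mpr ⟨a, b⟩⟩)))
  exact sup_eq_left.mpr (zpowers_le.mpr m.z_V) ▸ m.lx.dc' m.V_Q ⟨h2, fun q hq => h q (QC_L hq)⟩

variable (j : JF m x)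
include j

omit [Finite G] in
theorem ρ_SJ {c : centralizer ({z} : Set G)} (hc : (c : G) ∈ centralizer (m.V : Set G)) : ρ c ∈ SJ := by
  obtain ⟨s, hs, ps⟩ := m.surj v1
  obtain ⟨t, ht, pt⟩ := m.surj v2
  exact SJ_of (j.hr.le ⟨c, rfl⟩) (ps ▸ m.fix_of hs (hc s (m.s_V hs ps))) (pt ▸ m.fix_of ht (hc t (m.t_V ht pt)))

theorem lift {e : Γ} (he : e ∈ SJ) : ∃ c, ρ c = e ∧ (c : G) ∈ centralizer (m.V : Set G) :=
  m.lift_cent m.V_Q m.z_V (j.hr.ge (J0_XJ he.1)) fun _ ⟨_, c, h⟩ => h ▸ SJ_fix he c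

theorem card_of {B : Subgroup G} {E : Subgroup Γ} (h1 : Q ⊓ centralizer (m.V : Set G) ≤ B) (h2 : B ≤ centralizer (m.V : Set G))
    (h3 : E ≤ SJ) (h : ∀ c : centralizer ({z} : Set G), (c : G) ∈ centralizer (m.V : Set G) → ((c : G) ∈ B ↔ ρ c ∈ E)) :
    Nat.card B = Nat.card E * 2 ^ 11 := by
  have l := m.card_inf (B := B.subgroupOf _)
  rw [Nat.card_congr (subgroupOfEquivOfLe (h2.trans m.CV_le)).toEquiv,
    show (B.subgroupOf _).map ρ = E from le_antisymm (map_le_iff_le_comap.mpr fun c a => (h c (h2 a)).mp a) fun e he =>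
      let ⟨c, a, b⟩ := lift j (h3 he); ⟨c, (h c b).mpr (a ▸ he), a⟩,
    show (B.subgroupOf _ ⊓ ρ.ker).map (centralizer ({z} : Set G)).subtype = Q ⊓ centralizer (m.V : Set G) from
      le_antisymm (map_le_iff_le_comap.mpr fun c h => ⟨(m.ker c).mp h.2, h2 h.1⟩) fun q hq =>
        ⟨⟨q, m.CV_le hq.2⟩, ⟨h1 hq, (m.ker _).mpr hq.1⟩, rfl⟩, m.card_QC] at l
  exact l.symm

theorem card_L : Nat.card (LJ m) = 2 ^ 15 :=
  (card_of j QC_L inf_le_right EJ_SJ fun _ h => mem_L.trans (and_iff_left h)).trans (by rw [EJ_card]; norm_num)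

theorem card_CV : Nat.card (centralizer (m.V : Set G)) = 120 * 2 ^ 15 :=
  (card_of j inf_le_right le_rfl le_rfl fun _ h => iff_of_true h (ρ_SJ j h)).trans (by rw [SJ_card]; norm_num)

variable [IsSimpleGroup G] (hG : ¬ IsMulCommutative G)
include hG

theorem conj_V {v : G} (hv : v ∈ m.V) (n : v ≠ 1) : IsConj z v := by
  rcases U6.mem_L.mp hv.2 with e | e | e | e
  · exact ((m.lx.mem_z.mp ((m.zero hv.1).mp e)).resolve_left n).symm ▸ IsConj.refl z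
  · exact j.ofJ hG hv.1 (one_mem _) e.symm
  · exact j.ofJ hG hv.1 (J0_XJ W_J0) (om_v1.trans e.symm)
  · refine j.ofJ hG hv.1 (J0_XJ (mul_mem W_J0 W_J0)) (Eq.trans ?_ e.symm)
    change ω • ω • v1 = _
    rw [om_v1, ← vc_om (by norm_num), v12]; exact congrArg vc (by decide +kernel)

theorem d5 {a : G} (ha : a ∈ centralizer (m.V : Set G)) (hu : orderOf a = 5) : D5 z a m.V := by
  obtain ⟨W, h⟩ := exists_d5 hG j (u := ⟨a, m.CV_le ha⟩) ((orderOf_mk _ _).trans hu)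
  have e : m.V = W := eq_of_le_of_card_ge (fun v hv => (h.mem v).mpr (or_iff_not_imp_left.mpr fun n =>
    ⟨conj_V j hG hv n, m.V_comm hv m.z_V, ha v hv⟩)) (by rw [h.cW, m.card_V]; norm_num)
  exact e ▸ h

theorem exists_u : ∃ u, D5 z u m.V :=
  haveI : Fact (Nat.Prime 5) := ⟨Nat.prime_five⟩
  let ⟨⟨a, ha⟩, hu⟩ := exists_prime_orderOf_dvd_card' (G := centralizer (m.V : Set G)) 5 (by rw [card_CV j]; norm_num)
  ⟨a, d5 j hG ha ((orderOf_mk _ _).symm.trans hu)⟩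

theorem tr {v : G} (hv : v ∈ m.V) (n : v ≠ 1) : ∃ c ∈ normalizer (m.V : Set G), c * z * c⁻¹ = v :=
  let ⟨_, h⟩ := exists_u j hG
  let ⟨c, a, b⟩ := h.tr v (conj_V j hG hv n) (mem_centralizer_singleton_iff.mp (h.le_cent hv))
  ⟨c, h.norm (mem_centralizer_singleton_iff.mpr a), b⟩

theorem ss : SS (Qf z Q) m.V := ⟨fun g _ _ => Qf_cj g, fun _ => m.V_sq, fun u hu h => by
    obtain ⟨c, -, rfl⟩ := tr j hG hu h
    exact Qf_eq m.lx c ▸ m.lx.conj c, fun u hu h v hv => by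
    obtain ⟨c, hc, rfl⟩ := tr j hG hu h
    simpa [mul_assoc] using Qf_cj c ((Qf_z m.lx).ge (m.V_Q ((mem_normalizer_iff.mp (inv_mem hc) v).mp hv)))⟩

theorem Qf_L {u : G} (hu : u ∈ m.V) (h1 : u ≠ 1) : Qf z Q u ⊓ centralizer (m.V : Set G) ≤ LJ m := fun c hc => by
  have hl := (ss j hG).lx u hu h1
  refine (mem_L (c := ⟨c, m.CV_le hc.2⟩)).mpr ⟨coreJ (E := ((Qf z Q u ⊓ centralizer (m.V : Set G)).subgroupOf _).map ρ)
    (map_le_iff_le_comap.mpr fun _ h => ρ_SJ j h.2) ?_ ?_ ⟨_, hc, rfl⟩, hc.2⟩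
  · rintro k hk _ ⟨x, hx, rfl⟩
    obtain ⟨k, rfl, h⟩ := lift j hk
    exact ⟨k * x * k⁻¹, ⟨hl.conj_mem (h u hu).symm hx.1, normBy_self _ _ h _ hx.2⟩, by simp⟩
  · rintro _ ⟨x, hx, rfl⟩
    rw [← map_mul, m.ker]
    exact zpowers_le.mpr hu.1 (hl.sq _ hx.1)

theorem L_dec {s : G} (hs : s ∈ Q) (ps : p s = v1) {r : G} (h : r ∈ LJ m) : ∃ q ∈ Q ⊓ centralizer (m.V : Set G),
    ∃ y ∈ Qf z Q s ⊓ centralizer (m.V : Set G), r = q * y := by
  have s1 : s ≠ 1 := fun e => v1_ne (by rw [← ps, e]; exact (m.zero (one_mem _)).mpr (one_mem _))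
  have sV := m.s_V hs ps
  obtain ⟨g, -, rfl⟩ := tr j hG sV s1
  have hp := m.lx.lpr hs fun e => v1_ne (by rw [← ps, e, m.p_z])
  have a0 := m.card_conj g
  rw [← Qf_eq m.lx] at hp a0
  have a1 := m.E_le hp rfl
  have a2 := m.E_norm hp rfl
  have a3 := m.le_card_E hp a0 rfl
  have a4 := m.E_sq hp rfl
  rw [j.hr, ps] at a1 a2
  generalize hE : ((Qf z Q (g * z * g⁻¹) ⊓ centralizer ({z} : Set G)).subgroupOf (centralizer ({z} : Set G))).map ρ = E at *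
  haveI := XA_ch.finite
  haveI : Finite E := Finite.of_injective _ (inclusion_injective (a1.trans inf_le_left))
  haveI : Finite EJ := Nat.finite_of_card_ne_zero (by rw [EJ_card]; norm_num)
  have a5 : E ⊓ J0 = EJ := eq_of_le_of_card_ge (coreJ (fun e he => ⟨he.2, (a1 he.1).2⟩) (fun k hk e he =>
    ⟨a2 k ⟨J0_XJ hk.1, hk.2⟩ e he.1, XJ_J0 k (J0_XJ hk.1) e he.2⟩) fun e he => a4 e he.1) (by
      rw [EJ_card]
      by_cases n : E ≤ J0
      · rw [inf_eq_left.mpr n]; omega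
      obtain ⟨t, t1, t2⟩ := SetLike.not_le_iff_exists.mp n
      have := card_le_two_mul (E := E) (K := J0) (t := t) fun g hg =>
        or_iff_not_imp_left.mpr (out_mul (a1 t1).1 (a1 hg).1 t2)
      omega)
  have h1 := (mem_L (c := ⟨r, m.CV_le h.2⟩)).mp h
  obtain ⟨y, hy, e⟩ := hE.ge (a5.ge h1.1).1
  obtain ⟨t, ht, pt⟩ := m.surj v2
  have h2 : (y : G) ∈ centralizer (m.V : Set G) := m.mem_CV hs ht ps pt (mem_centralizer_singleton_iff.mp y.2).symm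
    (hp.hP.cent y hy.1).symm (by
      by_contra n
      have a : y * t * (y : G)⁻¹ = _ * t := hp.hP.conj_eq_of_ne hy.1 ((ss j hG).le _ sV s1 (m.t_V ht pt)) (Ne.symm n)
      have b := m.act y ht
      rw [a, m.mul hs ht, ps, pt, e, ← om_v1, SJ_fix (EJ_SJ h1.1), add_eq_right] at b
      exact v1_ne b)
  exact ⟨r * (y : G)⁻¹, ⟨(m.ker (⟨r, m.CV_le h.2⟩ * y⁻¹)).mp (by rw [map_mul, map_inv, e, mul_inv_cancel]),
    Subgroup.mul_mem _ h.2 (inv_mem h2)⟩, y, ⟨hy.1, h2⟩, by simp⟩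

theorem L_sq {r : G} (h : r ∈ LJ m) : r * r ∈ m.V := by
  obtain ⟨s, hs, ps⟩ := m.surj v1
  have s1 : s ≠ 1 := fun e => v1_ne (by rw [← ps, e]; exact (m.zero (one_mem _)).mpr (one_mem _))
  obtain ⟨q, hq, y, hy, rfl⟩ := L_dec j hG hs ps h
  have h1 := (mem_L (c := ⟨y, m.CV_le hy.2⟩)).mp (Qf_L j hG (m.s_V hs ps) s1 hy)
  have h2 := m.conj_mem ⟨y, m.CV_le hy.2⟩ hq.1
  obtain ⟨x, hx, e⟩ := vc_surj (p q)
  have h3 := (m.mem_QC hq.1 e.symm).mp hq.2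
  rw [show q * y * (q * y) = q * (y * q * y⁻¹) * (y * y) by group]
  refine mul_mem ⟨mul_mem hq.1 h2, ?_⟩ (zpowers_le.mpr (m.s_V hs ps) (((ss j hG).lx _ (m.s_V hs ps) s1).sq y hy.1))
  rw [m.mul hq.1 h2, m.act ⟨y, m.CV_le hy.2⟩ hq.1, ← e]
  exact EJ_lin h1.1 hx h3.1 h3.2

theorem cj_L {n u a : G} (hn : n ∈ normalizer (m.V : Set G)) (hu : u ∈ m.V) (h1 : u ≠ 1)
    (ha : a ∈ Qf z Q u ⊓ centralizer (m.V : Set G)) : n * a * n⁻¹ ∈ LJ m :=
  Qf_L j hG ((mem_normalizer_iff.mp hn u).mp hu) (by simpa using h1) ⟨Qf_cj n ha.1, cn hn ha.2⟩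

theorem center_L : (center (LJ m)).map (LJ m).subtype = m.V := le_antisymm (map_le_iff_le_comap.mpr fun c h =>
  cent_L c.2 fun r hr => congrArg Subtype.val (mem_center_iff.mp h ⟨r, hr⟩)) fun v hv => ⟨⟨v, V_L hv⟩,
    mem_center_iff.mpr fun r => Subtype.ext (r.2.2 v hv).symm, rfl⟩

theorem norm_L : normalizer (LJ m : Set G) = normalizer (m.V : Set G) := le_antisymm (fun n hn => mem_normalizer_of_conj_mem
  fun v hv => cent_L ((mem_normalizer_iff.mp hn v).mp (V_L hv)) fun r hr => by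
    have := ((mem_normalizer_iff.mp (inv_mem hn) r).mp hr).2 v hv
    calc r * (n * v * n⁻¹) = n * (n⁻¹ * r * n⁻¹⁻¹ * v) * n⁻¹ := by group
      _ = _ := by rw [← this]; group) fun n hn => mem_normalizer_of_conj_mem fun r hr => by
    obtain ⟨s, hs, ps⟩ := m.surj v1
    obtain ⟨q, hq, y, hy, rfl⟩ := L_dec j hG hs ps hr
    rw [← conj_mul]
    exact mul_mem (cj_L j hG hn m.z_V m.lx.ne_one ⟨(Qf_z m.lx).ge hq.1, hq.2⟩) (cj_L j hG hn (m.s_V hs ps)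
      (fun e => v1_ne (by rw [← ps, e]; exact (m.zero (one_mem _)).mpr (one_mem _))) hy)

theorem special : IsSpecial 2 (LJ m) := by
  haveI : Fact (Nat.Prime 2) := ⟨Nat.prime_two⟩
  have hR : IsPGroup 2 (LJ m) := IsPGroup.of_card (card_L j)
  have h3 : m.V ≤ (commutator (LJ m)).map (LJ m).subtype := fun v hv => by
    by_cases e : v = 1
    · exact e ▸ one_mem _
    obtain ⟨n, h, rfl⟩ := tr j hG hv e
    obtain ⟨a, ha, b, hb, f⟩ := m.z_comm
    have k : ∀ a ∈ Q ⊓ centralizer (m.V : Set G), n * a * n⁻¹ ∈ LJ m := fun a ha =>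
      cj_L j hG h m.z_V m.lx.ne_one ⟨(Qf_z m.lx).ge ha.1, ha.2⟩
    rw [map_subtype_commutator]
    convert commutator_mem_commutator (k a ha) (k b hb) using 1
    rw [← f]; simp only [commutatorElement_def]; group
  have h4 := frattini_le_of_sq fun _ => L_sq j hG
  have h5 := map_mono (f := (LJ m).subtype) (H3.commutator_le_frattini hR)
  have h6 := center_L j hG
  exact ⟨hR, map_injective (subtype_injective _) (h6 ▸ le_antisymm h4 (h3.trans h5)),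
    map_injective (subtype_injective _) (h6 ▸ le_antisymm (h5.trans h4) h3)⟩

theorem exists_aut (φ : MulAut m.V) : ∃ l ∈ normalizer (m.V : Set G),
    (∀ c ∈ centralizer (m.V : Set G), l * c * l⁻¹ * c⁻¹ ∈ LJ m) ∧ ∀ u : m.V, l * u * l⁻¹ = φ u := by
  have n : ∀ {a r}, a ∈ normalizer (m.V : Set G) → r ∈ LJ m → a * r * a⁻¹ ∈ LJ m := fun ha hr =>
    (mem_normalizer_iff.mp ((norm_L j hG).ge ha) _).mp hr
  let S : Subgroup G :=
    { carrier := {l | l ∈ normalizer (m.V : Set G) ∧ ∀ c ∈ centralizer (m.V : Set G), l * c * l⁻¹ * c⁻¹ ∈ LJ m}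
      one_mem' := ⟨one_mem _, fun c _ => by simp⟩
      mul_mem' := fun {a b} ha hb => ⟨mul_mem ha.1 hb.1, fun c hc => by
        convert mul_mem (n ha.1 (hb.2 c hc)) (ha.2 c hc) using 1; group⟩
      inv_mem' := fun {a} ha => ⟨inv_mem ha.1, fun c hc => by
        convert n (inv_mem ha.1) (inv_mem (ha.2 c hc)) using 1; group⟩ }
  obtain ⟨g, hg, e⟩ := (ss j hG).exists_aut φ
  have := iSup₂_le (a := S) (fun u hu l hl => ⟨(ss j hG).le_norm hu.1 hu.2 hl, fun c hc => Qf_L j hG hu.1 hu.2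
    ⟨by simpa [mul_assoc] using mul_mem hl (((ss j hG).lx u hu.1 hu.2).conj_mem (hc u hu.1).symm (inv_mem hl)),
      Subgroup.mul_mem _ (cn ((ss j hG).le_norm hu.1 hu.2 hl) hc) (Subgroup.inv_mem _ hc)⟩⟩) hg
  exact ⟨g, this.1, this.2, e⟩

end Cfsg.Agent.J4E
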