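import Cfsg.Agent.J4E.L
import Cfsg.Agent.H26.AutP

/-! The normalizer of the special subgroup of order `2 ^ 15`. -/

set_option autoImplicit false
set_option linter.style.haveILetI false

namespace Cfsg.Agent.J4E

open Cfsg Cfsg.Agent.LL Cfsg.Agent.LL.U6 Cfsg.Agent.H16 Cfsg.Agent.H3 Cfsg.Agent.H10 Cfsg.Agent.J4D Subgroup Equiv

theorem center_S5 : center (Perm (Fin 5)) = ⊥ := eq_bot_iff.mpr fun σ h =>
  (by decide +kernel : ∀ σ : Perm (Fin 5), swap 0 1 * σ = σ * swap 0 1 → finRotate 5 * σ = σ * finRotate 5 → σ = 1) σ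
    (mem_center_iff.mp h _) (mem_center_iff.mp h _)

variable {G : Type*} [Group G] [Finite G]

theorem syl_of {p : ℕ} [h : Fact p.Prime] (h2 : ¬ p * p ∣ Nat.card G) {g : G} (hg : orderOf g = p) :
    ∃ P : Sylow p G, (P : Subgroup G) = zpowers g :=
  ⟨IsPGroup.toSylow (P := zpowers g) (IsPGroup.of_card (n := 1) (by rw [Nat.card_zpowers, hg, pow_one])) fun e => h2 (by
    rw [← (zpowers g).index_mul_card, Nat.card_zpowers, hg]; exact Nat.mul_dvd_mul_right e p), rfl⟩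

theorem seven {S I : Subgroup G} (hS : Nat.card S = 7) (h1 : ¬ 49 ∣ Nat.card G)
    (h2 : IsInternalDirectProduct S I (centralizer (S : Set G))) {A : Type*} [Group A] (e : I ≃* A) {g : G} (hg : orderOf g = 7) :
    ∃ I : Subgroup G, Nonempty (I ≃* A) ∧ ∀ k, k * g = g * k → k ^ (120 * 2 ^ 15) = 1 → k ∈ I := by
  obtain ⟨n, f⟩ := hg ▸ orderOf_dvd_natCard g
  obtain ⟨c, rfl⟩ := exists_conj_zpowers (by norm_num) f (fun ⟨a, b⟩ => h1 ⟨a, by rw [f, b]; ring⟩) hg hS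
  refine ⟨_, ⟨((MulAut.conj c⁻¹).subgroupMap I).symm.trans e⟩, fun k a b => ?_⟩
  obtain ⟨x, hx, y, hy, f⟩ := (mem_sup_iff_of_right_le_normalizer (h2.2.1.trans (centralizer_le_normalizer _))).mp
    (h2.2.2.2.2.ge ((H10.centralizer_zpowers _).ge (mem_centralizer_singleton_iff.mpr (cj_comm c a))))
  have := congrArg (· ^ (120 * 2 ^ 15)) f
  simp only [conj_pow, b, (show Commute x y from h2.2.2.1 x hx y hy).mul_pow, mul_one, mul_inv_cancel] at this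
  have a1 : x ^ (120 * 2 ^ 15) = 1 := h2.2.2.2.1.le ⟨pow_mem hx _, by
    rw [eq_inv_of_mul_eq_one_left this]; exact I.inv_mem (I.pow_mem hy _)⟩
  rw [orderOf_eq_one_iff.mp (Nat.eq_one_of_dvd_coprimes (by norm_num) (orderOf_dvd_of_pow_eq_one a1)
    (hS ▸ orderOf_dvd_natCard _ hx)), one_mul] at f
  exact ⟨y, hy, by simp [f, mul_assoc]⟩

theorem split {N : Type*} [Group N] {L K : Subgroup N} [L.Normal] (h : L.IsComplement' K) :
    ∃ e : N →* K, Function.Surjective e ∧ (∀ n, e n = 1 ↔ n ∈ L) ∧ ∀ k : K, e k = k :=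
  ⟨h.symm.QuotientMulEquiv.toMonoidHom.comp (QuotientGroup.mk' L),
    h.symm.QuotientMulEquiv.surjective.comp (QuotientGroup.mk'_surjective L), fun n =>
      (h.symm.QuotientMulEquiv.map_eq_one_iff (x := n)).trans (QuotientGroup.eq_one_iff n),
    fun k => h.symm.QuotientMulEquiv.apply_symm_apply k⟩

theorem n5 {z u : G} {V : Subgroup G} (h : D5 z u V) : normalizer (zpowers u : Set G) ≤ normalizer (V : Set G) :=
  fun c hc => mem_normalizer_of_conj_mem fun a ha => by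
    rcases (h.mem a).mp ha with rfl | ⟨a1, -, a2⟩
    · simp
    exact h.all (a1.trans (isConj_iff.mpr ⟨c, rfl⟩)) (cx hc a2)

theorem nonsplit {z u : G} {V L : Subgroup G} (h : D5 z u V) (cL : Nat.card L = 2 ^ 15) (LC : L ≤ centralizer (V : Set G))
    (VL : V ≤ L) [(L.subgroupOf (normalizer (V : Set G))).Normal] (K : Subgroup (normalizer (V : Set G))) :
    ¬ (L.subgroupOf (normalizer (V : Set G))).IsComplement' K := fun hK => by
  obtain ⟨e, -, e1, e2⟩ := split hK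
  obtain ⟨y, y1, -, y2⟩ := h.y
  let u' : normalizer (V : Set G) := ⟨u, h.norm (mem_centralizer_singleton_iff.mpr rfl)⟩
  let y' : normalizer (V : Set G) := ⟨y, h.norm (mem_centralizer_singleton_iff.mpr y1)⟩
  have u5 : u' ^ 5 = 1 := Subtype.ext (h.u5 ▸ pow_orderOf_eq_one u :)
  obtain ⟨q, q1, q2⟩ := conj_of_ker e ((Subgroup.ext e1 : e.ker = _) ▸ (IsPGroup.of_card cL).comap_subtype) Nat.prime_five
    (by norm_num) (x := e u') (by rw [← coe_pow, ← map_pow, u5, map_one, coe_one]) u5 (e2 _)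
  have a : q * e y' * q⁻¹ * u' = u' * (q * e y' * q⁻¹) := by
    rw [← q2]; refine cj_comm q ?_
    rw [← coe_mul, ← coe_mul, ← map_mul, ← map_mul, show y' * u' = u' * y' from Subtype.ext y1]
  have b : q * e y' * q⁻¹ * y'⁻¹ ∈ L.subgroupOf _ := (e1 _).mp (by simp [q1, e2])
  obtain ⟨w, hw, i, f⟩ := h.cw _ ((Commute.mul_left (congrArg Subtype.val a) (Commute.inv_left y1)).eq) (LC b)
  have c : u ^ i ∈ L := (mul_mem_cancel_left (VL hw)).mp (f ▸ b)
  rw [(orderOf_eq_one_iff (x := u ^ i)).mp (Nat.eq_one_of_dvd_coprimes (by norm_num) (cL ▸ orderOf_dvd_natCard _ c)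
    (h.u5 ▸ orderOf_dvd_of_mem_zpowers (zpow_mem (mem_zpowers u) i))), mul_one, mul_inv_eq_iff_eq_mul] at f
  obtain ⟨g1, g2⟩ := y2 w hw
  rw [← f] at g1 g2
  have := (e1 ((q * e y' * q⁻¹) ^ 4)).mpr (VL g1)
  simp only [map_pow, map_mul, map_inv, q1, e2, one_mul, inv_one, mul_one] at this
  exact g2 (congrArg Subtype.val (show (q * e y' * q⁻¹) ^ 4 = 1 by rw [conj_pow, ← coe_pow, this]; simp))

theorem abs {z : G} {V L M : Subgroup G} (hM : normalizer (V : Set G) = M) [(L.subgroupOf M).Normal]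
    (cL : Nat.card L = 2 ^ 15) (cC : Nat.card (centralizer (V : Set G)) = 120 * 2 ^ 15) (LC : L ≤ centralizer (V : Set G))
    (VL : V ≤ L) (ha : ∀ φ : MulAut V, ∃ l ∈ normalizer (V : Set G),
      (∀ c ∈ centralizer (V : Set G), l * c * l⁻¹ * c⁻¹ ∈ L) ∧ ∀ u : V, l * u * l⁻¹ = φ u)
    (h5 : ∀ u ∈ centralizer (V : Set G), orderOf u = 5 → D5 z u V) (e0 : MulAut V ≃* GL (Fin 3) (ZMod 2)) (h49 : ¬ 49 ∣ Nat.card G)
    (h7 : ∀ g : G, orderOf g = 7 → ∃ I : Subgroup G, Nonempty (I ≃* Perm (Fin 5)) ∧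
      ∀ k, k * g = g * k → k ^ (120 * 2 ^ 15) = 1 → k ∈ I) :
    Nonempty (M ⧸ L.subgroupOf M ≃* Perm (Fin 5) × Matrix.SpecialLinearGroup (Fin 3) (ZMod 2)) ∧
    (∀ K : Subgroup M, ¬ (L.subgroupOf M).IsComplement' K) ∧ (∃ K₁ : Subgroup G, K₁ ≤ M ∧ Nonempty (K₁ ≃* Perm (Fin 5))) ∧
    (∃ Q : Sylow 5 G, normalizer ((Q : Subgroup G) : Set G) ≤ M) ∧ ∃ S : Sylow 7 G, normalizer ((S : Subgroup G) : Set G) ≤ M := by
  subst hM
  haveI : Fact (Nat.Prime 5) := ⟨Nat.prime_five⟩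
  haveI : Fact (Nat.Prime 7) := ⟨by norm_num⟩
  set C := centralizer (V : Set G)
  have hC : C ≤ normalizer (V : Set G) := centralizer_le_normalizer _
  have hn : ∀ n ∈ normalizer (V : Set G), ∀ c ∈ C, n * c * n⁻¹ ∈ C := fun n hn c hc v hv => by
    have := hc _ ((mem_normalizer_iff.mp (inv_mem hn) v).mp hv)
    calc v * (n * c * n⁻¹) = n * (n⁻¹ * v * n⁻¹⁻¹ * c) * n⁻¹ := by group
      _ = _ := by rw [this]; group
  let π := QuotientGroup.mk' (L.subgroupOf (normalizer (V : Set G)))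
  have hπ : ∀ n, π n = 1 ↔ (n : G) ∈ L := fun n => QuotientGroup.eq_one_iff n
  obtain ⟨φ, hφ⟩ := exists_prime_orderOf_dvd_card' (G := MulAut V) 7 (by rw [Nat.card_congr e0.toEquiv, card_gl3]; norm_num)
  obtain ⟨l, l1, l2, l3⟩ := ha φ
  let g : normalizer (V : Set G) := ⟨l, l1⟩ ^ (orderOf (⟨l, l1⟩ : normalizer (V : Set G)) / 7)
  have g7 : orderOf g = 7 := orderOf_pow_orderOf_div (orderOf_pos _).ne' (by
    rw [← hφ, ← show V.normalizerMonoidHom ⟨l, l1⟩ = φ from MulEquiv.ext fun u => Subtype.ext (l3 u)]; exact orderOf_map_dvd _ _)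
  obtain ⟨I, ⟨e⟩, hI⟩ := h7 g ((orderOf_coe g).trans g7)
  have IK : C ⊓ centralizer {(g : G)} ≤ I := fun k hk => hI k (mem_centralizer_singleton_iff.mp hk.2)
    (cC ▸ orderOf_dvd_iff_pow_eq_one.mp (orderOf_dvd_natCard _ hk.1))
  have dec : Function.Surjective fun x : L.subgroupOf C × (C ⊓ centralizer {(g : G)}).subgroupOf C => (x.1 : C) * x.2 := fun c => by
    have : Commute (π ⟨l, l1⟩) (π ⟨c, hC c.2⟩) := commutatorElement_eq_one_iff_commute.mp (by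
      rw [← map_commutatorElement]; exact (hπ _).mpr (l2 c c.2))
    obtain ⟨q, q1, q2⟩ := conj_of_ker π (by rw [QuotientGroup.ker_mk']; exact (IsPGroup.of_card cL).comap_subtype) (p := 7) (by norm_num)
      (by norm_num) (x := ⟨c, hC c.2⟩ * g * ⟨c, hC c.2⟩⁻¹) (y := g) (by rw [conj_pow, ← g7, pow_orderOf_eq_one]; simp)
      (g7 ▸ pow_orderOf_eq_one g) (by rw [map_mul, map_mul, map_pow, ← (this.pow_left _).eq, map_inv, mul_inv_cancel_right])
    have := LC ((hπ q).mp q1)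
    exact ⟨(⟨⟨q, this⟩⁻¹, inv_mem ((hπ q).mp q1)⟩, ⟨⟨q, this⟩ * c, mul_mem this c.2, mem_centralizer_singleton_iff.mpr
      (mul_inv_eq_iff_eq_mul.mp ((cjcj (q : G) c g).trans (congrArg Subtype.val q2)))⟩), inv_mul_cancel_left _ _⟩
  have c1 : Nat.card I = 120 := by rw [Nat.card_congr e.toEquiv, Nat.card_perm, Nat.card_fin]; rfl
  have c2 := Nat.card_le_card_of_surjective _ dec
  have c3 := Nat.card_prod (L.subgroupOf C) ((C ⊓ centralizer {(g : G)}).subgroupOf C)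
  rw [Nat.card_congr (subgroupOfEquivOfLe LC).toEquiv, Nat.card_congr (subgroupOfEquivOfLe inf_le_left).toEquiv, cL] at c3
  obtain rfl := eq_of_le_of_card_ge IK (by omega)
  haveI : (L.subgroupOf C).Normal := (normal_subgroupOf_iff LC).mpr fun h k a b =>
    (normal_subgroupOf_iff (LC.trans hC)).mp inferInstance h k a (hC b)
  obtain ⟨θ', s1, k1, -⟩ := split ((Nat.bijective_iff_surjective_and_card _).mpr ⟨dec, c3.trans (by omega)⟩)
  let θ := ((subgroupOfEquivOfLe inf_le_left).trans e).toMonoidHom.comp θ'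
  have hs : Function.Surjective θ := ((subgroupOfEquivOfLe inf_le_left).trans e).surjective.comp s1
  have hk : ∀ c, θ c = 1 ↔ (c : G) ∈ L := fun c => (((subgroupOfEquivOfLe inf_le_left).trans e).map_eq_one_iff).trans (k1 c)
  obtain ⟨β, hβ⟩ := exists_beta θ hs center_S5 hn fun n hn' => by
    obtain ⟨l, hl, h0, e⟩ := ha (V.normalizerMonoidHom ⟨n, hn'⟩)
    have h1 : l⁻¹ * n ∈ C := fun u hu => by
      have : l * u * l⁻¹ = n * u * n⁻¹ := e ⟨u, hu⟩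
      calc u * (l⁻¹ * n) = l⁻¹ * (l * u * l⁻¹) * n := by group
        _ = _ := by rw [this]; group
    refine ⟨θ ⟨_, h1⟩, fun c d e => ?_⟩
    rw [← map_inv, ← map_mul, ← map_mul, ← mul_inv_eq_one, ← map_inv, ← map_mul, hk]
    convert h0 _ (⟨_, h1⟩ * c * ⟨_, h1⟩⁻¹ : C).2 using 1
    simp [e, mul_assoc]
  obtain ⟨e2⟩ := gl_sl
  let e1 := e0.trans e2
  let Φ := β.prod (e1.toMonoidHom.comp V.normalizerMonoidHom)
  have hα : ∀ n, V.normalizerMonoidHom n = 1 ↔ (n : G) ∈ C := fun n => SetLike.ext_iff.mp V.normalizerMonoidHom_ker n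
  have hΦ : ∀ n, Φ n = 1 ↔ β n = 1 ∧ (n : G) ∈ C := fun n => by simp [Φ, Prod.ext_iff, hα]
  have kΦ : Φ.ker = L.subgroupOf _ := Subgroup.ext fun n => (hΦ n).trans ⟨fun h => (hk ⟨n, h.2⟩).mp (hβ n ⟨n, h.2⟩ rfl ▸ h.1),
    fun h => ⟨(hβ n ⟨n, LC h⟩ rfl).trans ((hk _).mpr h), LC h⟩⟩
  have sΦ : Function.Surjective Φ := fun ⟨b, a⟩ => by
    obtain ⟨l, hl, -, e⟩ := ha (e1.symm a)
    obtain ⟨c, e'⟩ := hs ((β ⟨l, hl⟩)⁻¹ * b)
    refine ⟨⟨l, hl⟩ * ⟨c, hC c.2⟩, (map_mul _ _ _).trans (Prod.ext ?_ ?_)⟩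
    · simp [Φ, hβ ⟨c, hC c.2⟩ c rfl, e']
    · simp [Φ, (hα ⟨c, hC c.2⟩).mpr c.2, show V.normalizerMonoidHom ⟨l, hl⟩ = e1.symm a from
        MulEquiv.ext fun u => Subtype.ext (e u)]
  obtain ⟨u, u5⟩ := exists_prime_orderOf_dvd_card' (G := ↥(C ⊓ centralizer {(g : G)})) 5 (by rw [c1]; norm_num)
  have d := h5 u u.2.1 ((orderOf_coe u).trans u5)
  obtain ⟨P, hP⟩ := syl_of (p := 5) d.not25 d.u5
  obtain ⟨S, hS⟩ := syl_of (p := 7) h49 ((orderOf_coe g).trans g7)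
  refine ⟨⟨(QuotientGroup.quotientMulEquivOfEq kΦ.symm).trans (QuotientGroup.quotientKerEquivOfSurjective Φ sΦ)⟩,
    nonsplit d cL LC VL, ⟨_, inf_le_left.trans hC, ⟨e⟩⟩, ⟨P, hP ▸ n5 d⟩, S, hS ▸ fun n hn => ?_⟩
  have o : orderOf (n * u * n⁻¹) = 5 := (H11.orderOf_conj _ _).trans d.u5
  obtain ⟨c, f⟩ := syl5 (G := ↥(C ⊓ centralizer {(g : G)})) (by rw [c1]; norm_num) (a := ⟨n * u * n⁻¹, hI _
    (cx hn (mem_centralizer_singleton_iff.mp u.2.2)) (orderOf_dvd_iff_pow_eq_one.mp (by rw [o]; norm_num))⟩)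
    ((orderOf_mk _ _).trans o) ((Nat.card_zpowers u).trans u5)
  obtain ⟨i, f⟩ := f.ge (mem_zpowers _)
  refine (mul_mem_cancel_left (hC c.2.1)).mp (n5 d (mem_normalizer_of_conj_mem ?_))
  rintro _ ⟨j, rfl⟩
  rw [← conj_zpow, cjcj]
  exact zpow_mem (mem_zpowers_iff.mpr ⟨i, congrArg Subtype.val f⟩) j

theorem main {z : G} {Q : Subgroup G} {ρ : centralizer ({z} : Set G) →* Γ} {p : G → V6} {m : FT z Q ρ p}
    {x : centralizer ({z} : Set G)} (j : JF m x) [IsSimpleGroup G] (hG : ¬ IsMulCommutative G)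
    (h7 : ∀ S : Subgroup G, Nat.card S = 7 → S ≤ centralizer ({z} : Set G) → ¬ 49 ∣ Nat.card G ∧
      ∃ I : Subgroup G, IsInternalDirectProduct S I (centralizer (S : Set G)) ∧ Nonempty (I ≃* Perm (Fin 5))) :
    ∃ L : Subgroup G, IsSpecial 2 L ∧ Nat.card L = 2 ^ 15 ∧ Nat.card (center L) = 8 ∧
    Nonempty (normalizer (L : Set G) ⧸ L.subgroupOf (normalizer (L : Set G)) ≃* Perm (Fin 5) × Matrix.SpecialLinearGroup (Fin 3) (ZMod 2)) ∧
    (∀ K : Subgroup (normalizer (L : Set G)), ¬ (L.subgroupOf (normalizer (L : Set G))).IsComplement' K) ∧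
    (∃ K₁ : Subgroup G, K₁ ≤ normalizer (L : Set G) ∧ Nonempty (K₁ ≃* Perm (Fin 5))) ∧
    (∃ K₂ : Subgroup G, K₂ ≤ normalizer (L : Set G) ∧ Nonempty (K₂ ≃* Matrix.SpecialLinearGroup (Fin 3) (ZMod 2))) ∧
    (∃ Q : Sylow 5 G, normalizer ((Q : Subgroup G) : Set G) ≤ normalizer (L : Set G)) ∧
    ∃ S : Sylow 7 G, normalizer ((S : Subgroup G) : Set G) ≤ normalizer (L : Set G) := by
  haveI : Fact (Nat.Prime 2) := ⟨Nat.prime_two⟩
  haveI : Fact (Nat.Prime 7) := ⟨by norm_num⟩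
  haveI : IsMulCommutative m.V := ⟨⟨fun a b => Subtype.ext (m.V_comm a.2 b.2)⟩⟩
  obtain ⟨b, d, t, Φ, k⟩ := j.exists_jc hG
  obtain ⟨⟨v, hv⟩, v7⟩ := exists_prime_orderOf_dvd_card' (G := centralizer ({z} : Set G)) 7
    (Dvd.dvd.trans (by rw [j.hr, XJ_card]; norm_num) (card_range_dvd ρ))
  have c := (Nat.card_zpowers v).trans ((orderOf_mk _ _).symm.trans v7)
  obtain ⟨h1, I, h2, ⟨e⟩⟩ := h7 _ c (zpowers_le.mpr hv)
  obtain ⟨e0⟩ := H26.nonempty_mulAut_equiv_GL (V := m.V) (fun a => Subtype.ext ((pow_two _).trans (m.V_sq a.2))) m.card_V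
  obtain ⟨a1, a2, a3, a4⟩ := abs (norm_L j hG).symm (card_L j) (card_CV j) inf_le_right V_L (exists_aut j hG)
    (fun _ => d5 j hG) e0 h1 fun _ => seven c h1 h2 e
  exact ⟨LJ m, special j hG, card_L j, by
    rw [← card_map_of_injective (subtype_injective _), center_L j hG, m.card_V]; rfl, a1, a2, a3, norm_L j hG ▸ exists_K2 k, a4⟩

end Cfsg.Agent.J4E
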