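import Cfsg.Agent.H21.Ja7

/-! The stabilizer `2 ^ 4 : S5` of an isotropic vector of the first type in `3.M22`. -/

set_option autoImplicit false
set_option maxRecDepth 100000
set_option linter.style.haveILetI false

namespace Cfsg.Agent.J4E

open Cfsg Cfsg.Agent.LL Cfsg.Agent.LL.U6 Cfsg.Agent.H16 Cfsg.Agent.H3 Cfsg.Agent.H10 MulAction Mdl Subgroup

def ejl : List ℕ := [(nat_lit 0x8000000040000000200000001000000008000000040000000200000001000000008000000040000000200000001),
  (nat_lit 0xbcf0000040f000007b000000770000006f0000005f0000003e0000003df00000c2e00000c2d00000c2b00000c27),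
  (nat_lit 0xbcf0000040f0000063000000530000004b000000470000003e0000003df00000c2800000c2400000c2200000c21),
  (nat_lit 0x800000004000000038000000340000002c0000001c000000020000000100000000e0000000d0000000b00000007),
  (nat_lit 0xbc0000007c000000ec000000dc000000f8000000f400000002f0000001f0000003b000000370000003e0000003d),
  (nat_lit 0x80f000007cf00000b7000000bb0000009f000000af0000003ef000003d000000c1d00000c1e00000c1700000c1b),
  (nat_lit 0x80f000007cf0000093000000a3000000870000008b0000003ef000003d000000c1400000c1800000c1100000c12),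
  (nat_lit 0xbc0000007c000000c8000000c4000000e0000000d000000002f0000001f00000032000000310000003800000034),
  (nat_lit 0x800000004000000034000000380000001c0000002c000000020000000100000000d0000000e000000070000000b),
  (nat_lit 0xbcf0000040f000005300000063000000470000004b0000003e0000003df00000c2400000c2800000c2100000c22),
  (nat_lit 0xbcf0000040f00000770000007b0000005f0000006f0000003e0000003df00000c2d00000c2e00000c2700000c2b),
  (nat_lit 0x8000000040000000100000002000000004000000080000000200000001000000004000000080000000100000002),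
  (nat_lit 0xbc0000007c000000c4000000c8000000d0000000e000000002f0000001f00000031000000320000003400000038),
  (nat_lit 0x80f000007cf00000a3000000930000008b000000870000003ef000003d000000c1800000c1400000c1200000c11),
  (nat_lit 0x80f000007cf00000bb000000b7000000af0000009f0000003ef000003d000000c1e00000c1d00000c1b00000c17),
  (nat_lit 0xbc0000007c000000dc000000ec000000f4000000f800000002f0000001f000000370000003b0000003d0000003e)]
def wj : List (ℕ × ℕ) := [((nat_lit 0x31f00000b20000001ea00000b550000085a00000125000007d30000080c00000aad00000578000006bb00000961),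
    (nat_lit 0x3d9000009a6000007aa00000625000008aa00000ae5000006560000098000000ab40000097d00000a880000094e)),
  ((nat_lit 0x673000006b3000009100000061f00000ee00000022f00000cea00000ce900000434000007c70000081b00000be7),
    (nat_lit 0xe73000002bc00000c8500000345000009f5000005f500000cca00000f36000001770000014800000d5200000d62))]
noncomputable def ej (i : ℕ) : ℕ := nth o.one ejl i

/-- the stabilizer -/
noncomputable abbrev SJ : Subgroup Γ := J0 ⊓ stabilizer Γ v1
theorem SJ_ch : N.Chain M J0L.tail SJ := stab_ch J0_ch P1'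
theorem SJ_card : Nat.card SJ = 1920 := SJ_ch.card.trans (by decide +kernel)

theorem SJ_of {g : Γ} (hg : g ∈ XJ) (h1 : g v1 = v1) (h2 : g v2 = v2) : g ∈ SJ := ⟨(XJ_W hg).elim
  (fun e => J0_of hg (mul_inv_eq_iff_eq_mul.mp e)) fun e => by
    have : g (ω • v1) = ω • ω • g v1 := congrArg (· v1) (mul_inv_eq_iff_eq_mul.mp e)
    rw [h1, om_v1, h2, ← vc_om (by norm_num)] at this
    exact absurd (vc_inj (by norm_num) (by decide +kernel) this) (by decide +kernel), h1⟩

theorem SJ_fix {g : Γ} (hg : g ∈ SJ) (c : F4) : g (c • v1) = c • v1 := by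
  rw [GU_smul (J0_GU hg.1)]; exact congrArg _ hg.2

theorem ejl_top : M.InL ⊤ ejl := (prL_top (S := ejl.map fun a => (a, a)) (by decide +kernel)).inL.sub (by decide +kernel)
theorem R_ej (i : ℕ) : M.R (ej i) (el (ej i)) ∧ el (ej i) ∈ SJ := R_in ((SJ_ch.inL ejl_top (by decide +kernel)).nth i)
theorem ej_xor {e f : ℕ} (he : e < 16) (hf : f < 16) : el (ej e) * el (ej f) = el (ej (e ^^^ f)) :=
  R_fun (M.R_mul (R_ej e).1 (R_ej f).1) (Nat.eq_of_beq_eq_true (allB_iff.mp (allB_iff.mp (by decide +kernel : allB 16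
    (fun e => allB 16 fun f => Nat.beq (ej (Nat.xor e f)) (o.mul (ej e) (ej f))) = true) e he) f hf) ▸ (R_ej _).1)
theorem ej_zero : el (ej 0) = 1 := isOne_spec (R_ej 0).1 (by decide +kernel)

/-- the largest normal `2`-subgroup of the stabilizer -/
def EJ : Subgroup Γ where
  carrier := {g | ∃ i < 16, el (ej i) = g}
  one_mem' := ⟨0, by norm_num, ej_zero⟩
  mul_mem' := by
    rintro _ _ ⟨i, hi, rfl⟩ ⟨j, hj, rfl⟩
    exact ⟨_, Nat.xor_lt_two_pow (n := 4) hi hj, (ej_xor hi hj).symm⟩
  inv_mem' := by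
    rintro _ ⟨i, hi, rfl⟩
    exact ⟨i, hi, (inv_eq_of_mul_eq_one_left (by rw [ej_xor hi hi, Nat.xor_self, ej_zero])).symm⟩

theorem EJ_SJ : EJ ≤ SJ := by rintro _ ⟨i, -, rfl⟩; exact (R_ej i).2

theorem EJ_card : Nat.card EJ = 16 := by
  have h : (EJ : Set Γ) = (fun i => el (ej i)) '' (Finset.range 16 : Set ℕ) := Set.ext fun g =>
    ⟨fun ⟨i, hi, e⟩ => ⟨i, by simpa using hi, e⟩, fun ⟨i, hi, e⟩ => ⟨i, by simpa using hi, e⟩⟩
  change (EJ : Set Γ).ncard = 16
  rw [h, Set.InjOn.ncard_image, Set.ncard_coe_finset, Finset.card_range]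
  intro i hi j hj e
  by_contra n
  exact ne_of_neB hv hpt (R_ej i).1 (R_ej j).1 ((by decide +kernel : ∀ i < 16, ∀ j < 16, i ≠ j →
    neB o pts (ej i) (ej j) = true) i (by simpa using hi) j (by simpa using hj) n) e

theorem coreJ {E : Subgroup Γ} (h1 : E ≤ SJ) (h2 : NormBy SJ E) (h3 : ∀ y ∈ E, y * y = 1) : E ≤ EJ := fun e he => by
  obtain ⟨a, r, k⟩ := SJ_ch.forall (Lf := fun a => force a fun a => orB (force (o.mul a a) fun q => neB o pts q o.one)
    (orB (anyB 16 fun i => Nat.beq (ej i) a) (anyP wj fun u u' => force (o.mul a (cj3 o u a u')) fun y => force (o.mul y y) fun q =>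
      neB o pts q o.one))) (by decide +kernel) (h1 he)
  simp only [force_eq, orB_iff, anyP_iff, anyB_iff, Nat.beq_eq] at k
  rcases k with k | ⟨i, hi, k⟩ | ⟨u, hu, k⟩
  · exact absurd (h3 e he) (ne_of_neB hv hpt (M.R_mul r r) M.R_one k)
  · exact ⟨i, hi, R_fun (R_ej i).1 (k ▸ r)⟩
  · obtain ⟨g, hg, s, s'⟩ := SJ_ch.prL (prL_top (S := wj) (by decide +kernel)) (by decide +kernel) u hu
    have := M.R_mul r (R_cj3 s s' r)
    exact absurd (h3 _ (mul_mem he (h2 g hg e he))) (ne_of_neB hv hpt (M.R_mul this this) M.R_one k)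

theorem EJ_lin {e : Γ} (he : e ∈ EJ) {x : ℕ} (hx : x < 4096) (h1 : ort x 15 = true) (h2 : ort x 960 = true) :
    ∃ c : F4, vc x + e (vc x) = c • v1 := by
  obtain ⟨i, hi, rfl⟩ := he
  have h := allB_iff.mp (by decide +kernel : allB 16 (fun i => force (ej i) fun a => allQ 4096 fun x => impB (ort x 15)
    (impB (ort x 960) (force (Nat.xor x (mul12Ap a x)) lin))) = true) i hi
  simp only [force_eq, allQ_iff, impB_iff] at h
  rw [(R_ap (R_ej i).1 hx).2, ← vc_xor]
  exact (lin_iff (Nat.xor_lt_two_pow (n := 12) hx (R_ap (R_ej i).1 hx).1)).mpr (h x hx h1 h2)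

theorem EJ_one {e : Γ} (he : e ∈ EJ) (h : ∀ x < 4096, ort x 15 = true → ort x 960 = true → e (vc x) = vc x) : e = 1 := by
  obtain ⟨i, hi, rfl⟩ := he
  have l := fun x hx a b => vc_inj (R_ap (R_ej i).1 hx).1 hx ((R_ap (R_ej i).1 hx).2.symm.trans (h x hx a b))
  rw [(by decide +kernel : ∀ i < 16, mul12Ap (ej i) 16 = 16 → mul12Ap (ej i) 197 = 197 → i = 0) i hi
    (l 16 (by norm_num) (by decide +kernel) (by decide +kernel)) (l 197 (by norm_num) (by decide +kernel) (by decide +kernel)), ej_zero]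

theorem move {e : Γ} (he : e ∈ F16) (n : e ≠ 1) : ∃ u ∈ NJ, u * Wm = Wm * u ∧ u * e ≠ e * u := by
  have l : el (fe 2) ≠ 1 ∧ el (fe 2) ≠ el (fe 1) := ⟨ne_of_neB hv hpt (R_fe 2).1 M.R_one (by decide +kernel),
    ne_of_neB hv hpt (R_fe 2).1 (R_fe 1).1 (by decide +kernel)⟩
  by_cases h : e = el (fe 1)
  · obtain ⟨u, hu, a, b⟩ := F16_transJ (R_fe 2).2 l.1
    exact ⟨u, hu, a, fun f => l.2 (by rw [← b, ← h, f, mul_inv_cancel_right])⟩
  · obtain ⟨u, hu, a, b⟩ := F16_transJ he n
    exact ⟨u, hu, a, fun f => h (by rw [← mul_left_cancel_iff (a := u), f, ← b, inv_mul_cancel_right])⟩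

end Cfsg.Agent.J4E
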